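import Cfsg.Agent.Glauberman.Corr
import Cfsg.Agent.Chars.Induced.Covering
import Cfsg.Agent.Chars.Induced.Gallagher
import Cfsg.Agent.Chars.Induced.Clifford
import Cfsg.Agent.Chars.Induced.Det
import Cfsg.Agent.Chars.Basic.Linear
import Cfsg.Agent.Chars.Basic.ClassSum

/-!
# Characters over a character with abelian inertia quotient
-/

set_option autoImplicit false

namespace CfsgLib.Glauberman

open Cfsg
open CfsgLib.Chars.Induced (conjFun inertia conjIrr)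

universe u

/-- Induction from a normal subgroup with abelian quotient of an invariant character. -/
theorem indFun_eq_of_abelian_quotient {X : Type u} [Group X] [Fintype X] (N : Subgroup X)
    [N.Normal] [Fintype N] (hab : ∀ a b : X, a * b * a⁻¹ * b⁻¹ ∈ N) (θ : IrrCharacter N)
    (hinv : ∀ x : X, conjFun N x (θ : N → ℂ) = θ) :
    ∃ (e : ℕ) (C : Finset (IrrCharacter X)), 0 < e ∧ e ^ 2 * C.card = N.index ∧
      (∀ ψ ∈ C, (ψ : X → ℂ) 1 = (e : ℂ) * (θ : N → ℂ) 1) ∧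
      (∀ ψ ∈ C, CfsgLib.Chars.Induced.mult (fun n : N => (ψ : X → ℂ) n) θ = e) ∧
      indFun N (θ : N → ℂ) = (e : ℂ) • ∑ ψ ∈ C, (ψ : X → ℂ) ∧
      (Nat.Coprime N.index (Nat.card N) → e = 1) := by
  classical
  have hΦ := CfsgLib.Chars.Induced.isCharacter_indFun N (CfsgLib.Chars.isCharacter_coe θ)
  obtain ⟨s, hmem, hs⟩ := CfsgLib.Chars.Induced.exists_eq_sum_mult hΦ
  obtain ⟨ψ₀, hψ₀⟩ := CfsgLib.Chars.Induced.exists_mult_ne_zero hΦ fun h0 => by
    have h1 := congrFun h0 1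
    rw [CfsgLib.Chars.Induced.indFun_one_apply, Pi.zero_apply] at h1
    exact h1 |> fun h => (mul_eq_zero.1 h).elim
      (fun h2 => Subgroup.index_ne_zero_of_finite (Nat.cast_eq_zero.1 h2))
      (CfsgLib.Chars.map_one_ne_zero θ)
  rw [CfsgLib.Chars.Induced.mult_indFun_irr] at hψ₀
  set e := CfsgLib.Chars.Induced.mult (fun n : N => (ψ₀ : X → ℂ) n) θ with he
  have hcliff : ∀ ψ : IrrCharacter X, CfsgLib.Chars.Induced.mult (fun n : N => (ψ : X → ℂ) n) θ ≠ 0 →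
      (fun n : N => (ψ : X → ℂ) n) =
        (CfsgLib.Chars.Induced.mult (fun n : N => (ψ : X → ℂ) n) θ : ℂ) • (θ : N → ℂ) := by
    intro ψ hψ
    have h1 := CfsgLib.Chars.Induced.clifford ψ θ hψ
    have hsingle : (Set.finite_range fun x : X => conjIrr x θ).toFinset = {θ} := by
      ext η
      simp only [Set.Finite.mem_toFinset, Set.mem_range, Finset.mem_singleton]
      exact ⟨fun ⟨x, hx⟩ => hx ▸ Subtype.ext (hinv x),
        fun h => ⟨1, (CfsgLib.Chars.Induced.conjIrr_one θ).trans h.symm⟩⟩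
    rwa [hsingle, Finset.sum_singleton] at h1
  haveI hcommQ : IsMulCommutative (X ⧸ N) := ⟨⟨fun a b => by
    obtain ⟨a, rfl⟩ := QuotientGroup.mk_surjective a
    obtain ⟨b, rfl⟩ := QuotientGroup.mk_surjective b
    rw [← QuotientGroup.mk_mul, ← QuotientGroup.mk_mul, QuotientGroup.eq]
    simpa [mul_assoc] using hab b⁻¹ a⁻¹⟩⟩
  have hkey : ∀ ψ ∈ s, ∃ l : (X ⧸ N) →* ℂˣ, (ψ : X → ℂ) =
      fun x : X => ((l (x : X ⧸ N) : ℂˣ) : ℂ) * (ψ₀ : X → ℂ) x := by
    intro ψ hψ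
    haveI := Fintype.ofFinite (X ⧸ N)
    have h1 := CfsgLib.Chars.Induced.indFun_restrict_normal (N := N)
      (CfsgLib.Chars.isClassFunction_coe ψ₀)
    rw [hcliff ψ₀ hψ₀, CfsgLib.Chars.Induced.indFun_smul] at h1
    have h2 := congrArg (fun f : X → ℂ => classInner f (ψ : X → ℂ)) h1
    simp only [CfsgLib.Chars.classInner_smul_left, CfsgLib.Chars.classInner_sum_left] at h2
    obtain ⟨β, -, hβ⟩ := Finset.exists_ne_zero_of_sum_ne_zero (s := Finset.univ)
      (f := fun β : IrrCharacter (X ⧸ N) => (β : X ⧸ N → ℂ) 1 * classInner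
        (fun g => (ψ₀ : X → ℂ) g * (β : X ⧸ N → ℂ) (g : X ⧸ N)) (ψ : X → ℂ)) (by
        rw [← h2]
        exact mul_ne_zero (Nat.cast_ne_zero.2 hψ₀)
          ((CfsgLib.Chars.Induced.mult_ne_zero_iff hΦ ψ).1 ((hmem ψ).1 hψ)))
    obtain ⟨l, rfl⟩ := CfsgLib.Chars.exists_linChar_eq β
      (CfsgLib.Chars.map_one_eq_one_of_isMulCommutative β)
    refine ⟨l, ?_⟩
    let π : IrrCharacter X := ⟨fun x : X => ((l (x : X ⧸ N) : ℂˣ) : ℂ) * (ψ₀ : X → ℂ) x,
      CfsgLib.Chars.isIrrCharacter_linear_mul ψ₀.2 (l.comp (QuotientGroup.mk' N))⟩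
    by_contra hne
    apply (mul_ne_zero_iff.1 hβ).2
    rw [show (fun g => (ψ₀ : X → ℂ) g * (CfsgLib.Chars.linChar l : X ⧸ N → ℂ) (g : X ⧸ N)) =
      (π : X → ℂ) from funext fun g => mul_comm _ _]
    exact CfsgLib.Chars.classInner_of_ne fun h => hne (congrArg Subtype.val h).symm
  have hres : ∀ ψ ∈ s, ∀ n : N, (ψ : X → ℂ) n = (ψ₀ : X → ℂ) n := by
    intro ψ hψ n
    obtain ⟨l, hl⟩ := hkey ψ hψ
    rw [congrFun hl n, (QuotientGroup.eq_one_iff (n : X)).2 n.2, map_one, Units.val_one, one_mul]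
  have hmult : ∀ ψ ∈ s, CfsgLib.Chars.Induced.mult (fun n : N => (ψ : X → ℂ) n) θ = e := by
    intro ψ hψ
    rw [he, funext (hres ψ hψ)]
  have hind : indFun N (θ : N → ℂ) = (e : ℂ) • ∑ ψ ∈ s, (ψ : X → ℂ) := by
    rw [Finset.smul_sum]
    refine hs.trans (Finset.sum_congr rfl fun ψ hψ => ?_)
    rw [CfsgLib.Chars.Induced.mult_indFun_irr, hmult ψ hψ]
  have hdeg : ∀ ψ ∈ s, (ψ : X → ℂ) 1 = (e : ℂ) * (θ : N → ℂ) 1 := by
    intro ψ hψ
    have h1 := congrFun (hcliff ψ (by rw [hmult ψ hψ]; exact hψ₀)) 1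
    rw [hmult ψ hψ] at h1
    simpa using h1
  have hcard : e ^ 2 * s.card = N.index := by
    have h1 := congrFun hind 1
    rw [CfsgLib.Chars.Induced.indFun_one_apply, Pi.smul_apply, Finset.sum_apply,
      Finset.sum_congr rfl (fun ψ hψ => hdeg ψ hψ), Finset.sum_const, nsmul_eq_mul,
      smul_eq_mul, ← mul_assoc, ← mul_assoc] at h1
    have h2 := mul_right_cancel₀ (CfsgLib.Chars.map_one_ne_zero θ) h1
    rw [sq]
    exact_mod_cast (show ((e * e * s.card : ℕ) : ℂ) = (N.index : ℂ) by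
      push_cast; rw [h2]; ring)
  refine ⟨e, s, Nat.pos_of_ne_zero hψ₀, hcard, hdeg, hmult, hind, fun hcop => ?_⟩
  obtain ⟨χ, hχ, -⟩ := CfsgLib.Chars.Induced.exists_canonical_extension θ hinv
    (CfsgLib.Chars.coe_charDegree θ).symm
    (Nat.Coprime.mul_right
      (hcop.coprime_dvd_right
        (CfsgLib.Chars.Induced.detOrder_dvd_card (CfsgLib.Chars.isCharacter_coe θ)))
      (hcop.coprime_dvd_right (CfsgLib.Chars.charDegree_dvd_card θ)))
  have hm : CfsgLib.Chars.Induced.mult (fun n : N => (χ : X → ℂ) n) θ = 1 := by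
    rw [funext hχ, CfsgLib.Chars.Induced.mult_irr, if_pos rfl]
  have hmemχ : χ ∈ s := (hmem χ).2 (by rw [CfsgLib.Chars.Induced.mult_indFun_irr, hm]; exact one_ne_zero)
  rw [← hmult χ hmemχ, hm]

/-- Induction to the whole group when the inertia quotient is abelian. -/
theorem exists_indFun_eq_of_abelian_inertia {G : Type u} [Group G] [Fintype G] (H T : Subgroup G)
    [hH : H.Normal] (θ : IrrCharacter H) (hT : T = inertia H (θ : H → ℂ))
    (hab : ∀ x ∈ T, ∀ y ∈ T, x * y * x⁻¹ * y⁻¹ ∈ H) :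
    ∃ (e : ℕ) (C : Finset (G → ℂ)), 0 < e ∧ (∀ χ ∈ C, IsIrrCharacter G χ) ∧
      e ^ 2 * C.card = H.relIndex T ∧ indFun H (θ : H → ℂ) = (e : ℂ) • ∑ χ ∈ C, χ ∧
      (∀ χ ∈ C, χ 1 = (T.index : ℂ) * e * (θ : H → ℂ) 1) ∧
      (Nat.Coprime (H.relIndex T) (Nat.card H) → e = 1) := by
  classical
  haveI := Fintype.ofFinite T
  haveI := Fintype.ofFinite H
  have hHT : H ≤ T := hT ▸ CfsgLib.Chars.Induced.le_inertia (CfsgLib.Chars.isClassFunction_coe θ)
  let N : Subgroup T := H.subgroupOf T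
  haveI := Fintype.ofFinite N
  let eN : N ≃* H := Subgroup.subgroupOfEquivOfLe hHT
  let θN : IrrCharacter N := irrPull eN θ
  have hinv : ∀ x : T, conjFun N x (θN : N → ℂ) = θN := by
    intro x
    refine CfsgLib.Chars.Induced.conjFun_eq_of_forall (fun y n => ?_) x
    show (θ : H → ℂ) (eN _) = (θ : H → ℂ) (eN n)
    exact CfsgLib.Chars.Induced.mem_inertia_iff_forall.1 (hT ▸ y.2) (eN n) _ rfl
  obtain ⟨e, C, he, hcard, hdeg, hmult, hind, hone⟩ := indFun_eq_of_abelian_quotient N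
    (fun a b => hab a a.2 b b.2) θN hinv
  have hψ : ∀ ψ ∈ C, CfsgLib.Chars.Induced.mult
      (fun n : H => (ψ : T → ℂ) (Subgroup.inclusion hHT n)) θ = e := by
    intro ψ hψ
    rw [← hmult ψ hψ]
    simp only [CfsgLib.Chars.Induced.mult]
    rw [← CfsgLib.Chars.Induced.classInner_comp_equiv eN
      (fun n : H => (ψ : T → ℂ) (Subgroup.inclusion hHT n))]
    rfl
  have hinj : Set.InjOn (fun ψ : IrrCharacter T => indFun T (ψ : T → ℂ)) C :=
    fun ψ h ψ' h' he' => CfsgLib.Chars.Induced.indFun_inertia_injective hT hHT ψ ψ'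
      (by rw [hψ ψ h]; exact he.ne') (by rw [hψ ψ' h']; exact he.ne') he'
  refine ⟨e, C.image fun ψ : IrrCharacter T => indFun T (ψ : T → ℂ), he, ?_, ?_, ?_, ?_, ?_⟩
  · intro χ hχ
    obtain ⟨ψ, hψC, rfl⟩ := Finset.mem_image.1 hχ
    exact CfsgLib.Chars.Induced.isIrrCharacter_indFun_inertia hT hHT ψ
      (by rw [hψ ψ hψC]; exact he.ne')
  · rw [Finset.card_image_of_injOn hinj, hcard]
    rfl
  · rw [← CfsgLib.Chars.Induced.indFun_trans hHT (θ : H → ℂ),
      show (fun h : H.subgroupOf T => (θ : H → ℂ) ⟨(h : T), h.2⟩) = (θN : N → ℂ) from rfl, hind,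
      CfsgLib.Chars.Induced.indFun_smul, CfsgLib.Chars.Induced.indFun_sum,
      Finset.sum_image hinj]
  · intro χ hχ
    obtain ⟨ψ, hψC, rfl⟩ := Finset.mem_image.1 hχ
    show indFun T (ψ : T → ℂ) 1 = _
    rw [CfsgLib.Chars.Induced.indFun_one_apply, hdeg ψ hψC, ← mul_assoc]
    congr 1
  · intro hcop
    exact hone (Nat.card_congr eN.toEquiv ▸ hcop)

end CfsgLib.Glauberman
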