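import Cfsg.Agent.Glauberman.Sub
import Cfsg.Agent.Chars.Induced.Covering
import Cfsg.Agent.Chars.Induced.Gallagher
import Cfsg.Agent.Chars.Induced.Clifford
import Cfsg.Agent.Chars.Induced.Det
import Cfsg.Agent.Chars.Basic.Linear
import Cfsg.Agent.Chars.Basic.ClassSum
import Mathlib.GroupTheory.Complement

/-!
# Characters of degree coprime to a complement
-/

set_option autoImplicit false

namespace CfsgLib.Glauberman

open Cfsg MulAction

universe u

variable {G : Type u} [Group G] [Finite G]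

/-- A character of degree coprime to the index restricts irreducibly to an invariant character. -/
theorem exists_restrict_of_coprime_degree [Fintype G] (K : Subgroup G) [K.Normal] [Fintype K]
    (χ : IrrCharacter G) (hχ : (charDegree (χ : G → ℂ)).Coprime K.index) :
    ∃ θ : IrrCharacter K, (∀ k : K, (χ : G → ℂ) k = (θ : K → ℂ) k) ∧
      ∀ g : G, CfsgLib.Chars.Induced.conjFun K g (θ : K → ℂ) = θ := by
  classical
  obtain ⟨θ, hθ⟩ := CfsgLib.Chars.Induced.exists_mult_ne_zero
    (CfsgLib.Chars.isCharacter_restrict (CfsgLib.Chars.isCharacter_coe χ) K) fun h0 =>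
      CfsgLib.Chars.map_one_ne_zero χ (congrFun h0 1)
  set e := CfsgLib.Chars.Induced.mult (fun n : K => (χ : G → ℂ) n) (θ : K → ℂ) with he
  have h1 := CfsgLib.Chars.Induced.clifford_one χ θ hθ
  rw [← he, ← CfsgLib.Chars.coe_charDegree, ← CfsgLib.Chars.coe_charDegree] at h1
  norm_cast at h1
  have ht : (CfsgLib.Chars.Induced.inertia K (θ : K → ℂ)).index = 1 := by
    refine Nat.Coprime.eq_one_of_dvd (hχ.coprime_dvd_left ?_)
      (Subgroup.index_dvd_of_le (CfsgLib.Chars.Induced.le_inertia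
        (CfsgLib.Chars.isClassFunction_coe θ)))
    exact h1 ▸ Dvd.dvd.mul_right (dvd_mul_left _ _) _
  have hinv : ∀ g : G, CfsgLib.Chars.Induced.conjFun K g (θ : K → ℂ) = θ := fun g =>
    CfsgLib.Chars.Induced.mem_inertia.1 ((Subgroup.index_eq_one.1 ht).symm ▸ Subgroup.mem_top g)
  have he1 : e = 1 := by
    refine Nat.Coprime.eq_one_of_dvd (hχ.coprime_dvd_left ?_)
      (CfsgLib.Chars.Induced.mult_dvd_index_of_invariant θ hinv χ hθ)
    exact h1 ▸ Dvd.dvd.mul_right (dvd_mul_right _ _) _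
  refine ⟨θ, fun k => ?_, hinv⟩
  have h2 := congrFun (CfsgLib.Chars.Induced.clifford χ θ hθ) k
  have hsingle : (Set.finite_range fun x : G => CfsgLib.Chars.Induced.conjIrr x θ).toFinset
      = {θ} := by
    ext η
    simp only [Set.Finite.mem_toFinset, Set.mem_range, Finset.mem_singleton]
    exact ⟨fun ⟨x, hx⟩ => hx ▸ Subtype.ext (hinv x),
      fun h => ⟨1, (CfsgLib.Chars.Induced.conjIrr_one θ).trans h.symm⟩⟩
  rw [hsingle, Finset.sum_singleton, ← he, he1] at h2
  simpa using h2

/-- **Counting characters of degree coprime to a solvable complement.** -/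
theorem card_coprime_degree (K H : Subgroup G) [K.Normal] (hKH : K ⊔ H = ⊤)
    (hcop : (Nat.card K).Coprime (Nat.card H)) [Group.IsSolvable H] :
    Nat.card {χ : IrrCharacter G // (charDegree (χ : G → ℂ)).Coprime (Nat.card H)} =
      Nat.card (IrrCharacter ↥(K ⊓ Subgroup.centralizer (H : Set G))) * Nat.card (H →* ℂˣ) := by
  classical
  haveI := Fintype.ofFinite G
  haveI := Fintype.ofFinite K
  let ι : H →* G ⧸ K := (QuotientGroup.mk' K).comp H.subtype
  have hι : Function.Bijective ι := by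
    refine ⟨(injective_iff_map_eq_one ι).2 fun h hh => Subtype.ext ?_, fun q => ?_⟩
    · have h1 : h.1 ∈ K ⊓ H := ⟨(QuotientGroup.eq_one_iff h.1).1 hh, h.2⟩
      rwa [disjoint_iff.1 (Subgroup.disjoint_of_coprime_natCard hcop), Subgroup.mem_bot] at h1
    · obtain ⟨g, rfl⟩ := QuotientGroup.mk_surjective q
      obtain ⟨k, hk, h, hh, rfl⟩ := Subgroup.mem_sup_of_normal_left.1
        (hKH ▸ Subgroup.mem_top g : g ∈ K ⊔ H)
      refine ⟨⟨h, hh⟩, ?_⟩
      show (h : G ⧸ K) = ((k * h : G) : G ⧸ K)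
      rw [QuotientGroup.mk_mul, (QuotientGroup.eq_one_iff k).2 hk, one_mul]
  let eH : H ≃* G ⧸ K := MulEquiv.ofBijective ι hι
  have hidx : K.index = Nat.card H := (Nat.card_congr eH.toEquiv).symm
  have hnorm : ∀ h ∈ H, ∀ k ∈ K, h * k * h⁻¹ ∈ K := fun h _ k hk =>
    (inferInstance : K.Normal).conj_mem k hk h
  letI := conjSubAction K H hnorm
  have hfix : ∀ θ : IrrCharacter K, θ ∈ fixedPoints H (IrrCharacter K) →
      ∀ g : G, CfsgLib.Chars.Induced.conjFun K g (θ : K → ℂ) = θ := by
    intro θ hθ g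
    have hle : H ≤ CfsgLib.Chars.Induced.inertia K (θ : K → ℂ) := fun h hh => by
      rw [CfsgLib.Chars.Induced.mem_inertia]
      funext k
      rw [CfsgLib.Chars.Induced.conjFun_apply]
      exact ((invariant_iff hnorm θ).2 hθ) h⁻¹ (inv_mem hh) k _ (by simp)
    exact CfsgLib.Chars.Induced.mem_inertia.1 ((sup_le (CfsgLib.Chars.Induced.le_inertia
      (CfsgLib.Chars.isClassFunction_coe θ)) hle) (hKH ▸ Subgroup.mem_top g))
  have hext : ∀ θ : fixedPoints H (IrrCharacter K), ∃ χ : IrrCharacter G,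
      ∀ k : K, (χ : G → ℂ) k = (θ.1 : K → ℂ) k := fun θ => by
    obtain ⟨χ, hχ, -⟩ := CfsgLib.Chars.Induced.exists_canonical_extension θ.1 (hfix θ.1 θ.2)
      (CfsgLib.Chars.coe_charDegree θ.1).symm
      (Nat.Coprime.mul_right (hidx ▸ (hcop.coprime_dvd_left
        (CfsgLib.Chars.Induced.detOrder_dvd_card (CfsgLib.Chars.isCharacter_coe θ.1))).symm)
        (hidx ▸ (hcop.coprime_dvd_left (CfsgLib.Chars.charDegree_dvd_card θ.1)).symm))
    exact ⟨χ, hχ⟩
  choose ext hext using hext
  let prod : fixedPoints H (IrrCharacter K) → ((G ⧸ K) →* ℂˣ) → IrrCharacter G := fun θ b =>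
    ⟨_, CfsgLib.Chars.Induced.gallagher_isIrrCharacter (ext θ) θ.1 (hext θ)
      (CfsgLib.Chars.linChar b)⟩
  have hprodK : ∀ θ b (k : K), (prod θ b : G → ℂ) k = (θ.1 : K → ℂ) k := fun θ b k => by
    show (ext θ : G → ℂ) k * ((b ((k : G) : G ⧸ K) : ℂˣ) : ℂ) = _
    rw [(QuotientGroup.eq_one_iff (k : G)).2 k.2, map_one, Units.val_one, mul_one, hext θ k]
  have hdeg : ∀ θ b, charDegree (prod θ b : G → ℂ) = charDegree (θ.1 : K → ℂ) := fun θ b =>
    CfsgLib.Chars.charDegree_eq_of_map_one (by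
      rw [← OneMemClass.coe_one K, hprodK, CfsgLib.Chars.coe_charDegree])
  let Φ : fixedPoints H (IrrCharacter K) × ((G ⧸ K) →* ℂˣ) →
      {χ : IrrCharacter G // (charDegree (χ : G → ℂ)).Coprime (Nat.card H)} := fun p =>
    ⟨prod p.1 p.2, by
      rw [hdeg]
      exact hcop.coprime_dvd_left (CfsgLib.Chars.charDegree_dvd_card p.1.1)⟩
  have hΦ : Function.Bijective Φ := by
    constructor
    · rintro ⟨θ, b⟩ ⟨θ', b'⟩ h
      have h' : prod θ b = prod θ' b' := congrArg Subtype.val h
      obtain rfl : θ = θ' := Subtype.ext (Subtype.ext (funext fun k => by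
        rw [← hprodK θ b k, h', hprodK]))
      refine Prod.ext rfl (CfsgLib.Chars.linChar_injective
        (CfsgLib.Chars.Induced.gallagher_injective (ext θ) θ.1 (hext θ) _ _ fun g => ?_))
      exact congrFun (congrArg Subtype.val h') g
    · rintro ⟨χ, hχ⟩
      obtain ⟨θ, hres, hinv⟩ := exists_restrict_of_coprime_degree K χ (hidx ▸ hχ)
      have hθ : θ ∈ fixedPoints H (IrrCharacter K) := by
        refine (invariant_iff hnorm θ).1 fun h _ k k' hk => ?_
        have h1 := congrFun (hinv h⁻¹) k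
        rw [CfsgLib.Chars.Induced.conjFun_apply] at h1
        rw [← h1]
        exact congrArg (θ : K → ℂ) (Subtype.ext (by simp [hk]))
      obtain ⟨β, hβ⟩ := CfsgLib.Chars.Induced.gallagher_exists (ext ⟨θ, hθ⟩) θ (hext ⟨θ, hθ⟩) χ
        (by
          rw [CfsgLib.Chars.Induced.mult_ne_zero_iff (CfsgLib.Chars.isCharacter_restrict
            (CfsgLib.Chars.isCharacter_coe χ) K), funext hres,
            CfsgLib.Chars.Induced.classInner_irr_self]
          exact one_ne_zero)
      have h1 : (β : G ⧸ K → ℂ) 1 = 1 := by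
        have h2 := congrFun hβ ((1 : K) : G)
        rw [hres, hext ⟨θ, hθ⟩, OneMemClass.coe_one, QuotientGroup.mk_one] at h2
        exact (mul_eq_left₀ (CfsgLib.Chars.map_one_ne_zero θ)).1 h2.symm
      obtain ⟨b, rfl⟩ := CfsgLib.Chars.exists_linChar_eq β h1
      exact ⟨(⟨θ, hθ⟩, b), Subtype.ext (Subtype.ext hβ.symm)⟩
  rw [← Nat.card_congr (Equiv.ofBijective Φ hΦ), Nat.card_prod,
    card_fixed_irr _ H rfl K hcop]
  congr 1
  · exact Nat.card_congr (irrEquiv
      { toFun := fun x => ⟨⟨x.1, x.2.1⟩, (fixed_iff_mem hnorm _).2 x.2⟩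
        invFun := fun x => ⟨x.1.1, (fixed_iff_mem hnorm x.1).1 x.2⟩
        left_inv := fun _ => rfl
        right_inv := fun _ => rfl
        map_mul' := fun _ _ => rfl })
  · exact Nat.card_congr
      { toFun := fun b => b.comp eH.toMonoidHom
        invFun := fun b => b.comp eH.symm.toMonoidHom
        left_inv := fun b => MonoidHom.ext fun q => by simp
        right_inv := fun b => MonoidHom.ext fun q => by simp }

end CfsgLib.Glauberman
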