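import Cfsg.Agent.Eq.Def_Transfer
import Cfsg.Agent.Glauberman.CoprimeDegree
import Cfsg.Agent.CharTable.InvariantMatrix
import Cfsg.Agent.Chars.Basic.Columns
import Cfsg.Agent.Chars.Apps.ThompsonComplement

/-!
# Degrees of characters and the `p`-residual
-/

set_option autoImplicit false

namespace CfsgLib.Glauberman

open Cfsg MulAction
open CfsgLib.Chars.Induced (conjFun conjIrr conjIrrAction)

universe u

variable {G : Type u} [Group G] [Finite G] (p : ℕ) [hp : Fact p.Prime]

/-- The index of the `p`-residual is a power of `p`. -/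
theorem pResidual_index : ∃ n : ℕ, (pResidual p G).index = p ^ n := by
  obtain ⟨k, hk⟩ := IsPGroup.iff_card.1
    (CfsgLib.LocalCharP.isPGroup_quotient_pResidual (p := p) (G := G))
  exact ⟨k, (Subgroup.index_eq_card _).trans hk⟩

theorem not_dvd_orderOf_linear (l : pResidual p G →* ℂˣ) : ¬ p ∣ orderOf l :=
  (hp.out.coprime_iff_not_dvd).1 (CfsgLib.Chars.Apps.orderOf_coprime_pResidual l).symm

/-- The characters of degree and determinantal order prime to `p`, and the invariant characters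
of degree prime to `p` of the `p`-residual. -/
theorem bijOn_restrict_pResidual [Fintype G] [(pResidual p G).Normal] [Fintype (pResidual p G)] :
    ∃ r : {χ : IrrCharacter G //
        ¬ p ∣ charDegree (χ : G → ℂ) ∧ ¬ p ∣ detOrder (χ : G → ℂ)} →
      {θ : IrrCharacter (pResidual p G) // ¬ p ∣ charDegree (θ : pResidual p G → ℂ) ∧
        ∀ g : G, conjIrr g θ = θ},
      Function.Bijective r ∧ ∀ χ, charDegree ((r χ).1 : pResidual p G → ℂ) =
        charDegree (χ.1 : G → ℂ) := by
  classical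
  obtain ⟨n, hn⟩ := pResidual_index (G := G) p
  set N := pResidual p G with hN
  have hcop : ∀ {m : ℕ}, ¬ p ∣ m → m.Coprime N.index := fun {m} h => by
    rw [hn]
    exact (((Nat.Prime.coprime_iff_not_dvd hp.out).2 h).symm).pow_right n
  choose θ hθ using fun χ : {χ : IrrCharacter G //
      ¬ p ∣ charDegree (χ : G → ℂ) ∧ ¬ p ∣ detOrder (χ : G → ℂ)} =>
    exists_restrict_of_coprime_degree N χ.1 (hcop χ.2.1)
  have hdeg : ∀ χ, charDegree ((θ χ : IrrCharacter N) : N → ℂ) = charDegree (χ.1 : G → ℂ) :=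
    fun χ => CfsgLib.Chars.charDegree_eq_of_map_one (by
      rw [← (hθ χ).1, OneMemClass.coe_one, CfsgLib.Chars.coe_charDegree])
  have hcopθ : ∀ η : IrrCharacter N, ¬ p ∣ charDegree (η : N → ℂ) →
      Nat.Coprime N.index (detOrder (η : N → ℂ) * charDegree (η : N → ℂ)) := fun η h =>
    Nat.Coprime.mul_right (hcop (by
      rw [CfsgLib.Chars.Induced.detOrder_eq (CfsgLib.Chars.isCharacter_coe η)]
      exact not_dvd_orderOf_linear p _)).symm (hcop h).symm
  refine ⟨fun χ => ⟨θ χ, (hdeg χ).symm ▸ χ.2.1, fun g => Subtype.ext ((hθ χ).2 g)⟩,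
    ⟨fun χ χ' he => ?_, fun η => ?_⟩, hdeg⟩
  · have he' : θ χ = θ χ' := congrArg Subtype.val he
    obtain ⟨ψ, -, -, hu⟩ := CfsgLib.Chars.Induced.exists_canonical_extension (θ χ) (hθ χ).2
      (CfsgLib.Chars.coe_charDegree _).symm (hcopθ _ ((hdeg χ).symm ▸ χ.2.1))
    refine Subtype.ext ((hu χ.1 (hθ χ).1 (hcop χ.2.2).symm).trans
      (hu χ'.1 (fun m => ?_) (hcop χ'.2.2).symm).symm)
    rw [he']
    exact (hθ χ').1 m
  · obtain ⟨ψ, hψ, hψd, -⟩ := CfsgLib.Chars.Induced.exists_canonical_extension η.1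
      (fun g => congrArg Subtype.val (η.2.2 g)) (CfsgLib.Chars.coe_charDegree _).symm
      (hcopθ _ η.2.1)
    have hψdeg : charDegree (ψ : G → ℂ) = charDegree (η.1 : N → ℂ) :=
      CfsgLib.Chars.charDegree_eq_of_map_one (by
        rw [← OneMemClass.coe_one N, hψ, CfsgLib.Chars.coe_charDegree])
    refine ⟨⟨ψ, hψdeg ▸ η.2.1, ?_⟩, Subtype.ext (Subtype.ext (funext fun m => ?_))⟩
    · rw [hψd, CfsgLib.Chars.Induced.detOrder_eq (CfsgLib.Chars.isCharacter_coe η.1)]
      exact not_dvd_orderOf_linear p _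
    · show (θ _ : N → ℂ) m = _
      rw [← (hθ _).1 m]
      exact hψ m

/-- **The order of the `p`-residual modulo `p`.** -/
theorem card_pResidual_modEq [Fintype G] [(pResidual p G).Normal] [Fintype (pResidual p G)]
    [Fintype {θ : IrrCharacter (pResidual p G) // ¬ p ∣ charDegree (θ : pResidual p G → ℂ) ∧
      ∀ g : G, conjIrr g θ = θ}] :
    (Nat.card (pResidual p G) : ZMod p) =
      ∑ θ : {θ : IrrCharacter (pResidual p G) // ¬ p ∣ charDegree (θ : pResidual p G → ℂ) ∧
        ∀ g : G, conjIrr g θ = θ}, (charDegree (θ.1 : pResidual p G → ℂ) : ZMod p) ^ 2 := by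
  classical
  obtain ⟨n, hn⟩ := pResidual_index (G := G) p
  set N := pResidual p G with hN
  letI := conjIrrAction N
  letI : MulAction (G ⧸ N) (IrrCharacter N) := MulAction.compHom _
    (QuotientGroup.lift N (MulAction.toPermHom G (IrrCharacter N)) fun m hm => Equiv.ext fun η =>
      Subtype.ext (CfsgLib.Chars.Induced.conjFun_of_mem (CfsgLib.Chars.isClassFunction_coe η) hm))
  have hQ : IsPGroup p (G ⧸ N) := IsPGroup.of_card (show Nat.card (G ⧸ N) = p ^ n from hn)
  have hsmul : ∀ (g : G) (η : IrrCharacter N), (g : G ⧸ N) • η = conjIrr g η := fun g η => rfl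
  have hfix : ∀ η : IrrCharacter N,
      η ∈ fixedPoints (G ⧸ N) (IrrCharacter N) ↔ ∀ g : G, conjIrr g η = η := fun η =>
    ⟨fun h g => (hsmul g η).symm.trans (h _), fun h q => by
      obtain ⟨g, rfl⟩ := QuotientGroup.mk_surjective q
      exact (hsmul g η).trans (h g)⟩
  haveI := Fintype.ofFinite (fixedPoints (G ⧸ N) (IrrCharacter N))
  rw [← CfsgLib.Chars.sum_charDegree_sq, Nat.cast_sum]
  simp only [Nat.cast_pow]
  rw [CfsgLib.CharTable.sum_eq_sum_fixedPoints hQ
    (fun η : IrrCharacter N => (charDegree (η : N → ℂ) : ZMod p) ^ 2) ?_]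
  · rw [← Finset.sum_subtype (Finset.univ.filter fun η : IrrCharacter N =>
      η ∈ fixedPoints (G ⧸ N) (IrrCharacter N)) (fun η => by simp)
        (fun η => (charDegree (η : N → ℂ) : ZMod p) ^ 2),
      ← Finset.sum_subtype (Finset.univ.filter fun η : IrrCharacter N =>
      ¬ p ∣ charDegree (η : N → ℂ) ∧ ∀ g : G, conjIrr g η = η) (fun η => by simp)
        (fun η => (charDegree (η : N → ℂ) : ZMod p) ^ 2)]
    refine (Finset.sum_subset (fun η hη => ?_) fun η hη hη' => ?_).symm
    · simp only [Finset.mem_filter, Finset.mem_univ, true_and] at hη ⊢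
      exact (hfix η).2 hη.2
    · simp only [Finset.mem_filter, Finset.mem_univ, true_and] at hη hη'
      have hd : p ∣ charDegree (η : N → ℂ) := by
        by_contra hd
        exact hη' ⟨hd, (hfix η).1 hη⟩
      rw [(ZMod.natCast_eq_zero_iff _ p).2 hd, sq, mul_zero]
  · intro q η
    obtain ⟨g, rfl⟩ := QuotientGroup.mk_surjective q
    rw [hsmul]
    congr 2
    simp [charDegree, conjFun]

end CfsgLib.Glauberman
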